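import Cfsg.Agent.H48.Ree.Sylow
import Cfsg.Agent.H65.Twist.ReeStatements

/-!
The small Ree group: unipotent coordinates, the torus as the multiplicative group of the field, uniqueness in
the big cell.
-/

set_option autoImplicit false

open Cfsg.Lie Cfsg.Agent.H46 Cfsg.Agent.H48.Ree

namespace Cfsg.Agent.H70.ReeOut

variable {K : Type*} [Field K] [Fintype K] {m : ℕ}

/-- The group. -/
abbrev G (K : Type*) [Field K] (m : ℕ) : Type _ := ↥(Gr K m)

/-- A unipotent element. -/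
noncomputable def w (m : ℕ) (t u v : K) : G K m := ⟨W (3 ^ m) t u v, W_mem_twisted _ t u v⟩

omit [Fintype K] in
theorem coe_w (t u v : K) : (w m t u v : GL chevG2.Idx K) = W (3 ^ m) t u v := rfl

/-- The unipotent subgroup. -/
abbrev U (K : Type*) [Field K] (m : ℕ) : Subgroup (G K m) := (Ur K m).subgroupOf (Gr K m)

/-- The torus. -/
abbrev T (K : Type*) [Field K] (m : ℕ) : Subgroup (G K m) := (Hr K m).subgroupOf (Gr K m)

/-- The Borel subgroup. -/
abbrev B (K : Type*) [Field K] (m : ℕ) : Subgroup (G K m) := (Br K m).subgroupOf (Gr K m)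

omit [Fintype K] in
theorem w_mem (t u v : K) : w m t u v ∈ U K m := Subgroup.mem_subgroupOf.2 (W_mem_U _ t u v)

variable (hK : Fintype.card K = 3 ^ (2 * m + 1))

include hK in
theorem exists_w {g : G K m} (hg : g ∈ U K m) : ∃ t u v, g = w m t u v := by
  obtain ⟨t, u, v, e⟩ := uShape hK _ (Subgroup.mem_subgroupOf.1 hg)
  exact ⟨t, u, v, Subtype.ext e⟩

include hK in
theorem w_inj {t u v t' u' v' : K} : w m t u v = w m t' u' v' ↔ t = t' ∧ u = u' ∧ v = v' := by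
  haveI := (field_data hK).1
  refine ⟨fun h => W_injective (congrArg Subtype.val h), ?_⟩
  rintro ⟨rfl, rfl, rfl⟩; rfl

omit [Fintype K] in
theorem w_zero : w m (0 : K) 0 0 = 1 := Subtype.ext (W_zero m)

include hK in
theorem w_mul (t u v s u' v' : K) : w m t u v * w m s u' v' =
    w m (t + s) (u + u' - t * s ^ (3 * 3 ^ m))
      (v + v' - t ^ 2 * s ^ (3 * 3 ^ m) - s * u + t * s ^ (3 * 3 ^ m + 1)) := by
  haveI := (field_data hK).1
  exact Subtype.ext (W_mul (field_data hK).2 t u v s u' v')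

include hK in
theorem w_pow_three (t u v : K) : w m t u v ^ 3 = w m 0 0 (-(t ^ (3 * 3 ^ m + 2))) := by
  haveI := (field_data hK).1
  exact Subtype.ext (W_cube (field_data hK).2 t u v)

include hK in
theorem w_ne_one {t u v : K} (ht : t ≠ 0) : w m t u v ≠ 1 := fun e =>
  ht ((w_inj hK).1 (e.trans w_zero.symm)).1

include hK in
theorem exists_torus : ∃ d : Kˣ →* G K m, Function.Injective d ∧ (∀ g, g ∈ T K m ↔ g ∈ d.range) ∧
    ∀ (x : Kˣ) (t u v : K), d x * w m t u v * (d x)⁻¹ =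
      w m ((x : K) * t) ((x : K) ^ (3 * 3 ^ m + 1) * u) ((x : K) ^ (3 * 3 ^ m + 2) * v) := by
  haveI := (field_data hK).1
  obtain ⟨ψ, hψ, hact⟩ := exists_param (uShape hK)
  have hbij : Function.Bijective ψ := by
    refine (Nat.bijective_iff_injective_and_card _).2 ⟨hψ, ?_⟩
    rw [Nat.card_units, Nat.card_eq_fintype_card (α := K), hK]
    exact Cfsg.Agent.H65.Twist.ree_card_diagonal hK
  let e := MulEquiv.ofBijective ψ hbij
  let d : Kˣ →* G K m := (Subgroup.inclusion (inf_le_right : Hr K m ≤ Gr K m)).comp e.symm.toMonoidHom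
  refine ⟨d, fun a b h => e.symm.injective (Subgroup.inclusion_injective (inf_le_right : Hr K m ≤ Gr K m) h), fun g => ⟨fun hg => ?_, ?_⟩,
    fun x t u v => ?_⟩
  · refine ⟨e ⟨(g : GL chevG2.Idx K), Subgroup.mem_subgroupOf.1 hg⟩, Subtype.ext ?_⟩
    show ((e.symm (e _) : ↥(Hr K m)) : GL chevG2.Idx K) = _
    rw [e.symm_apply_apply]
  · rintro ⟨x, rfl⟩
    exact Subgroup.mem_subgroupOf.2 (e.symm x).2
  · apply Subtype.ext
    have h := hact (e.symm x) t u v
    rw [show ψ (e.symm x) = x from e.apply_symm_apply x] at h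
    exact h

/-- The torus as the multiplicative group. -/
noncomputable def d : Kˣ →* G K m := (exists_torus hK).choose

theorem d_injective : Function.Injective (d hK) := (exists_torus hK).choose_spec.1

theorem mem_T {g : G K m} : g ∈ T K m ↔ ∃ x, d hK x = g := (exists_torus hK).choose_spec.2.1 g

theorem d_mem (x : Kˣ) : d hK x ∈ T K m := (mem_T hK).2 ⟨x, rfl⟩

theorem d_conj_w (x : Kˣ) (t u v : K) : d hK x * w m t u v * (d hK x)⁻¹ =
    w m ((x : K) * t) ((x : K) ^ (3 * 3 ^ m + 1) * u) ((x : K) ^ (3 * 3 ^ m + 2) * v) :=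
  (exists_torus hK).choose_spec.2.2 x t u v

/-- The representative of the reflection. -/
noncomputable def n : G K m := ⟨nW, nW_mem hK⟩

theorem n_conj_d (x : Kˣ) : n hK * d hK x * (n hK)⁻¹ = d hK x⁻¹ := by
  haveI := (field_data hK).1
  have hm := Subgroup.mem_subgroupOf.1 (d_mem hK x⁻¹)
  obtain ⟨h1, -⟩ := Subgroup.mem_inf.1 hm
  have hG : ((d hK x⁻¹ : G K m) : GL chevG2.Idx K) ∈ chevG2.group K := goodG2.diagonal_le_group h1
  have h := congrArg Subtype.val (Cfsg.Agent.H65.Twist.reeN_conj hK ⟨_, hG⟩ h1)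
  have hx : d hK x = (d hK x⁻¹)⁻¹ := by rw [map_inv, inv_inv]
  rw [hx]
  apply Subtype.ext
  simp only [Subgroup.coe_mul, Subgroup.coe_inv] at h ⊢
  exact h

theorem n_sq_mem : n hK * n hK ∈ T K m := by
  haveI := (field_data hK).1
  obtain ⟨fG, fU, fH⟩ := data_facts hK
  have h := (fH _).1 ((Cfsg.Agent.H65.Twist.reeSetup K hK).data.nS_sq ())
  exact Subgroup.mem_subgroupOf.2 h

theorem decomp' (g : G K m) : g ∈ B K m ∨
    ∃ a ∈ U K m, ∃ x, ∃ c ∈ U K m, g = a * (n hK * d hK x) * c := by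
  rcases decomp hK g.2 with h | ⟨b, hb, c, hc, e⟩
  · exact Or.inl (Subgroup.mem_subgroupOf.2 h)
  · obtain ⟨a, ha, h, hh, rfl⟩ := mem_Br hK hb
    obtain ⟨x, hx⟩ := (mem_T hK (g := ⟨h, (Subgroup.mem_inf.1 hh).2⟩)).1 (Subgroup.mem_subgroupOf.2 hh)
    refine Or.inr ⟨⟨a, (Subgroup.mem_inf.1 ha).2⟩, Subgroup.mem_subgroupOf.2 ha, x⁻¹,
      ⟨c, (Subgroup.mem_inf.1 hc).2⟩, Subgroup.mem_subgroupOf.2 hc, ?_⟩
    have h1 : n hK * d hK x⁻¹ = d hK x * n hK := by
      have := n_conj_d hK x⁻¹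
      rw [inv_inv, mul_inv_eq_iff_eq_mul] at this
      exact this
    rw [h1, hx]
    apply Subtype.ext
    simp only [Subgroup.coe_mul]
    rw [e]
    show _ = a * (h * (Cfsg.Agent.H48.Ree.nW : GL chevG2.Idx K)) * c
    group

omit [Fintype K] in
theorem U_le_B : U K m ≤ B K m := fun _ hg => Subgroup.mem_subgroupOf.2 (Ur_le_Br (Subgroup.mem_subgroupOf.1 hg))

omit [Fintype K] in
theorem T_le_B : T K m ≤ B K m := fun _ hg => Subgroup.mem_subgroupOf.2 (Hr_le_Br (Subgroup.mem_subgroupOf.1 hg))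

theorem exists_UT {g : G K m} (hg : g ∈ B K m) : ∃ a ∈ U K m, ∃ x, g = a * d hK x := by
  obtain ⟨a, ha, h, hh, e⟩ := mem_Br hK (Subgroup.mem_subgroupOf.1 hg)
  obtain ⟨x, hx⟩ := (mem_T hK (g := ⟨h, (Subgroup.mem_inf.1 hh).2⟩)).1 (Subgroup.mem_subgroupOf.2 hh)
  exact ⟨⟨a, (Subgroup.mem_inf.1 ha).2⟩, Subgroup.mem_subgroupOf.2 ha, x, by rw [hx]; exact Subtype.ext e⟩

omit [Fintype K] in
theorem conj_mem_U {b g : G K m} (hb : b ∈ B K m) (hg : g ∈ U K m) : b * g * b⁻¹ ∈ U K m :=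
  Subgroup.mem_subgroupOf.2 (conj_U (Subgroup.mem_subgroupOf.1 hb) (Subgroup.mem_subgroupOf.1 hg))

include hK in
theorem mem_B_of_conj {g x : G K m} (hx : x ∈ U K m) (hx1 : x ≠ 1) (h : g * x * g⁻¹ ∈ U K m) : g ∈ B K m := by
  by_contra hg
  exact hx1 (Subtype.ext (conj_inter hK g.2 (fun h' => hg (Subgroup.mem_subgroupOf.2 h'))
    (Subgroup.mem_subgroupOf.1 hx) (Ur_le_Br (Subgroup.mem_subgroupOf.1 h))))

theorem conj_n_U {x : G K m} (hx : x ∈ U K m) (h : n hK * x * (n hK)⁻¹ ∈ B K m) : x = 1 :=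
  Subtype.ext (conj_nW_borel hK (Subgroup.mem_subgroupOf.1 hx)
    (Subgroup.mem_inf.1 (Subgroup.mem_subgroupOf.1 h)).1)

theorem eq_one_of_U_T {a : G K m} {x : Kˣ} (ha : a ∈ U K m) (e : a = d hK x) : a = 1 :=
  Subtype.ext (Ur_inf_Hr (Subgroup.mem_subgroupOf.1 ha) (Subgroup.mem_subgroupOf.1 (e ▸ d_mem hK x)))

theorem U_mul_d_inj {a a' : G K m} {x x' : Kˣ} (ha : a ∈ U K m) (ha' : a' ∈ U K m)
    (e : a * d hK x = a' * d hK x') : a = a' ∧ x = x' := by
  have h : a'⁻¹ * a = d hK (x' * x⁻¹) := by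
    rw [map_mul, map_inv, eq_mul_inv_iff_mul_eq, mul_assoc, e, inv_mul_cancel_left]
  have h1 := eq_one_of_U_T hK (mul_mem (inv_mem ha') ha) h
  rw [inv_mul_eq_one] at h1
  subst h1
  exact ⟨rfl, d_injective hK (mul_left_cancel e)⟩

theorem cell_unique {a c a' c' : G K m} {x x' : Kˣ} (ha : a ∈ U K m) (hc : c ∈ U K m)
    (ha' : a' ∈ U K m) (hc' : c' ∈ U K m)
    (e : a * (n hK * d hK x) * c = a' * (n hK * d hK x') * c') : a = a' ∧ x = x' ∧ c = c' := by
  set z := d hK x' * c' * c⁻¹ * (d hK x)⁻¹ with hz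
  have h1 : a'⁻¹ * a = n hK * z * (n hK)⁻¹ := by
    rw [eq_mul_inv_iff_mul_eq, hz]
    calc a'⁻¹ * a * n hK = a'⁻¹ * (a * (n hK * d hK x) * c) * c⁻¹ * (d hK x)⁻¹ := by group
      _ = _ := by rw [e]; group
  have hzB : z ∈ B K m := mul_mem (mul_mem (mul_mem (T_le_B (d_mem hK x')) (U_le_B hc')) (inv_mem (U_le_B hc)))
    (inv_mem (T_le_B (d_mem hK x)))
  obtain ⟨z₁, hz₁, y, hy⟩ := exists_UT hK hzB
  have h2 : n hK * z₁ * (n hK)⁻¹ ∈ B K m := by
    have : n hK * z₁ * (n hK)⁻¹ = (a'⁻¹ * a) * (n hK * d hK y * (n hK)⁻¹)⁻¹ := by rw [h1, hy]; group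
    rw [this, n_conj_d]
    exact mul_mem (U_le_B (mul_mem (inv_mem ha') ha)) (inv_mem (T_le_B (d_mem hK _)))
  obtain rfl := conj_n_U hK hz₁ h2
  rw [one_mul] at hy
  rw [hy, n_conj_d] at h1
  have h3 := eq_one_of_U_T hK (mul_mem (inv_mem ha') ha) h1
  rw [inv_mul_eq_one] at h3
  subst h3
  have h4 : d hK x * c = d hK x' * c' := mul_left_cancel (mul_left_cancel (by simpa only [mul_assoc] using e))
  have h5 : d hK x * c * (d hK x)⁻¹ * d hK x = d hK x' * c' * (d hK x')⁻¹ * d hK x' := by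
    rw [inv_mul_cancel_right, inv_mul_cancel_right, h4]
  obtain ⟨-, h6⟩ := U_mul_d_inj hK (conj_mem_U (T_le_B (d_mem hK x)) hc) (conj_mem_U (T_le_B (d_mem hK x')) hc') h5
  subst h6
  exact ⟨rfl, rfl, mul_left_cancel h4⟩

include hK in
/-- The unipotent subgroup is a Sylow subgroup. -/
theorem exists_sylow : ∃ S : Sylow 3 (G K m), (S : Subgroup (G K m)) = U K m := by
  haveI : Fact (Nat.Prime 3) := ⟨Nat.prime_three⟩
  have hcU : Nat.card ↥(U K m) = 3 ^ ((2 * m + 1) * 3) := by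
    rw [Nat.card_congr (Subgroup.subgroupOfEquivOfLe (inf_le_right : Ur K m ≤ Gr K m)).toEquiv, card_Ur hK, pow_mul]
  have hidx : ¬ 3 ∣ (U K m).index := by
    have hmul := (U K m).card_mul_index
    rw [card_Gr hK, hcU, pow_mul, mul_assoc] at hmul
    rw [Nat.eq_of_mul_eq_mul_left (by positivity) hmul]
    intro h
    have h3 : 3 ∣ 3 ^ (2 * m + 1) := dvd_pow_self 3 (by omega)
    rcases (Nat.Prime.dvd_mul Nat.prime_three).1 h with h | h
    · have := dvd_trans h (card_Hr_dvd hK)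
      have := Nat.one_le_pow (2 * m + 1) 3 (by omega)
      omega
    · have := dvd_pow h3 (show 3 ≠ 0 by omega)
      omega
  exact ⟨(IsPGroup.of_card hcU).toSylow hidx, IsPGroup.toSylow_coe _ _⟩

end Cfsg.Agent.H70.ReeOut
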