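import Cfsg.Agent.H70.ReeOut.Basic

/-!
Field automorphisms of the small Ree group.
-/

set_option autoImplicit false

open Cfsg.Lie Cfsg.Agent.H46 Cfsg.Agent.H48.Ree

namespace Cfsg.Agent.H70.ReeOut

variable {K : Type*} [Field K] {m : ℕ}

theorem map_wordMat (σ : K →+* K) (L : List (ℕ × K)) :
    (chevG2.wordMat K L).map σ = chevG2.wordMat K (L.map fun p => (p.1, σ p.2)) := by
  simp only [ChevalleyDatum.wordMat, List.map_map]
  induction L with
  | nil => simp
  | cons p L ih =>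
    rw [List.map_cons, List.prod_cons, List.map_cons, List.prod_cons, Matrix.map_mul, ih]
    congr 1
    simp only [Function.comp_apply]
    exact Cfsg.Agent.H47.x_map chevG2 σ p.1 p.2

theorem map_reeWordU (σ : K →+* K) (e : ℕ) (t u v : K) :
    (reeWordU e t u v).map (fun p => (p.1, σ p.2)) = reeWordU e (σ t) (σ u) (σ v) := by
  simp [reeWordU]

theorem mapGL_mem (σ : K →+* K) {g : GL chevG2.Idx K} (hg : g ∈ Gr K m) :
    Cfsg.Agent.H65.mapGL chevG2 σ g ∈ Gr K m := by
  suffices h : Gr K m ≤ (Gr K m).comap (Cfsg.Agent.H65.mapGL chevG2 σ) from h hg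
  refine (Subgroup.closure_le _).2 ?_
  rintro g ⟨L, ⟨t, u, v, hL⟩, e⟩
  refine Subgroup.subset_closure ⟨L.map fun p => (p.1, σ p.2), ⟨σ t, σ u, σ v, ?_⟩, ?_⟩
  · rcases hL with rfl | rfl
    · exact Or.inl (map_reeWordU σ _ t u v)
    · refine Or.inr ?_
      rw [reeWordV, reeWordV, ← map_reeWordU]
      simp [ChevalleyDatum.negWord]
  · rw [Cfsg.Agent.H65.coe_mapGL, e, map_wordMat]

/-- The endomorphism induced by a field endomorphism. -/
def fieldHom (m : ℕ) (σ : K →+* K) : G K m →* G K m where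
  toFun g := ⟨Cfsg.Agent.H65.mapGL chevG2 σ g.1, mapGL_mem σ g.2⟩
  map_one' := Subtype.ext (map_one _)
  map_mul' _ _ := Subtype.ext (map_mul _ _ _)

variable [Fintype K]

/-- The field automorphism. -/
noncomputable def fieldAut (m : ℕ) (σ : K ≃+* K) : MulAut (G K m) :=
  MulEquiv.ofBijective (fieldHom m σ.toRingHom)
    (Finite.injective_iff_bijective.1 fun _ _ e =>
      Subtype.ext (Cfsg.Agent.H65.mapGL_injective _ (congrArg Subtype.val e)))

theorem fieldAut_w (σ : K ≃+* K) (t u v : K) : fieldAut m σ (w m t u v) = w m (σ t) (σ u) (σ v) := by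
  apply Subtype.ext
  apply Units.ext
  show ((W (3 ^ m) t u v : GL chevG2.Idx K) : Matrix chevG2.Idx chevG2.Idx K).map σ.toRingHom = _
  rw [coe_w, coe_W, coe_W, map_wordMat, map_reeWordU]
  rfl

theorem fieldAut_n (hK : Fintype.card K = 3 ^ (2 * m + 1)) (σ : K ≃+* K) :
    fieldAut m σ (n hK) = n hK :=
  Subtype.ext (Cfsg.Agent.H65.mapGL_nProd goodG2 _ _)

theorem fieldAut_d (hK : Fintype.card K = 3 ^ (2 * m + 1)) (σ : K ≃+* K) (x : Kˣ) :
    fieldAut m σ (d hK x) = d hK (Units.map σ.toRingHom.toMonoidHom x) := by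
  have hT : fieldAut m σ (d hK x) ∈ T K m := by
    refine Subgroup.mem_subgroupOf.2 (Subgroup.mem_inf.2 ⟨?_, (fieldAut m σ (d hK x)).2⟩)
    exact Cfsg.Agent.H65.mapGL_diagonal goodG2 _
      (Subgroup.mem_inf.1 (Subgroup.mem_subgroupOf.1 (d_mem hK x))).1
  obtain ⟨y, hy⟩ := (mem_T hK).1 hT
  rw [← hy]
  congr 1
  have h := congrArg (fieldAut m σ) (d_conj_w hK x 1 0 0)
  rw [map_mul, map_mul, map_inv, fieldAut_w, ← hy, fieldAut_w, d_conj_w, w_inj hK] at h
  exact Units.ext (by simpa using h.1)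

include m in
/-- The field automorphisms are as many as the degree. -/
theorem card_ringAut (hK : Fintype.card K = 3 ^ (2 * m + 1)) : Nat.card (K ≃+* K) = 2 * m + 1 := by
  haveI := (field_data hK).1
  haveI : Fact (Nat.Prime 3) := ⟨Nat.prime_three⟩
  letI : Algebra (ZMod 3) K := ZMod.algebra K 3
  let e : (K ≃ₐ[ZMod 3] K) ≃ (K ≃+* K) :=
    { toFun := fun f => f.toRingEquiv
      invFun := fun f => AlgEquiv.ofRingEquiv (f := f) fun z =>
        RingHom.congr_fun (Subsingleton.elim (f.toRingHom.comp (algebraMap (ZMod 3) K)) (algebraMap (ZMod 3) K)) z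
      left_inv := fun f => AlgEquiv.ext fun _ => rfl
      right_inv := fun f => RingEquiv.ext fun _ => rfl }
  rw [← Nat.card_congr e, IsGalois.card_aut_eq_finrank]
  have h := Module.natCard_eq_pow_finrank (K := ZMod 3) (V := K)
  rw [Nat.card_zmod, Nat.card_eq_fintype_card (α := K), hK] at h
  exact (Nat.pow_right_injective (show 2 ≤ 3 by omega) h).symm

end Cfsg.Agent.H70.ReeOut
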