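import Cfsg.Agent.H70.ReeOut.Field
import Cfsg.Prelude.Def_KGroupFacts

/-!
Every automorphism of the small Ree group is inner times a field automorphism.
-/

set_option autoImplicit false

open Cfsg.Lie Cfsg.Agent.H46 Cfsg.Agent.H48.Ree

namespace Cfsg.Agent.H70.ReeOut

variable {K : Type*} [Field K] [Fintype K] {m : ℕ} (hK : Fintype.card K = 3 ^ (2 * m + 1)) (hm : 1 ≤ m)

include hK hm

theorem sizes : 3 ≤ 3 ^ m ∧ 6 * 3 ^ m + 4 < 3 ^ (2 * m + 1) - 1 ∧ Fintype.card K = 3 * (3 ^ m * 3 ^ m) := by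
  have h : 3 ≤ 3 ^ m := by simpa using Nat.pow_le_pow_right (show 0 < 3 by omega) hm
  have e : 3 ^ (2 * m + 1) = 3 * (3 ^ m * 3 ^ m) := by rw [pow_succ, two_mul, pow_add]; ring
  refine ⟨h, ?_, hK.trans e⟩
  rw [e]
  have : 3 * 3 ^ m ≤ 3 ^ m * 3 ^ m := Nat.mul_le_mul_right _ h
  omega

theorem pow_ne_one_of_gen {c : Kˣ} (hc : ∀ x, x ∈ Subgroup.zpowers c) {k : ℕ} (h0 : 0 < k)
    (hk : k ≤ 6 * 3 ^ m + 4) : (c : K) ^ k ≠ 1 := by
  classical
  intro h
  have h1 : c ^ k = 1 := Units.ext (by simpa using h)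
  have h2 := Nat.le_of_dvd h0 (orderOf_dvd_of_pow_eq_one h1)
  rw [orderOf_eq_card_of_forall_mem_zpowers hc, Nat.card_units, Nat.card_eq_fintype_card, hK] at h2
  have := (sizes hK hm).2.1
  omega

/-- A generator of the torus has no fixed points on the unipotent subgroup. -/
theorem fixed_eq_one {c : Kˣ} (hc : ∀ x, x ∈ Subgroup.zpowers c) {g : G K m} (hg : g ∈ U K m)
    (h : d hK c * g * (d hK c)⁻¹ = g) : g = 1 := by
  obtain ⟨t, u, v, rfl⟩ := exists_w hK hg
  rw [d_conj_w, w_inj hK] at h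
  obtain ⟨h1, h2, h3⟩ := h
  have z : ∀ k : ℕ, 0 < k → k ≤ 6 * 3 ^ m + 4 → ∀ y : K, (c : K) ^ k * y = y → y = 0 := by
    intro k hk0 hk y hy
    by_contra hne
    exact pow_ne_one_of_gen hK hm hc hk0 hk (mul_right_cancel₀ hne (hy.trans (one_mul y).symm))
  have := (sizes hK hm).1
  rw [z 1 one_pos (by omega) t (by simpa using h1), z _ (by omega) (by omega) u h2, z _ (by omega) (by omega) v h3,
    w_zero]

theorem exists_conj_torus {c : Kˣ} (hc : ∀ x, x ∈ Subgroup.zpowers c) {a : G K m} (ha : a ∈ U K m) :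
    ∃ x ∈ U K m, x * d hK c * x⁻¹ = a * d hK c := by
  let f : ↥(U K m) → ↥(U K m) := fun x => ⟨x.1 * (d hK c * x.1⁻¹ * (d hK c)⁻¹),
    mul_mem x.2 (conj_mem_U (T_le_B (d_mem hK c)) (inv_mem x.2))⟩
  have hinj : Function.Injective f := by
    rintro ⟨x, hx⟩ ⟨y, hy⟩ e
    have e' : x * (d hK c * x⁻¹ * (d hK c)⁻¹) = y * (d hK c * y⁻¹ * (d hK c)⁻¹) := congrArg Subtype.val e
    have h1 : d hK c * (y⁻¹ * x) * (d hK c)⁻¹ = y⁻¹ * x := by
      calc d hK c * (y⁻¹ * x) * (d hK c)⁻¹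
          = y⁻¹ * (y * (d hK c * y⁻¹ * (d hK c)⁻¹)) * (d hK c * x * (d hK c)⁻¹) := by group
        _ = _ := by rw [← e']; group
    have h2 := fixed_eq_one hK hm hc (mul_mem (inv_mem hy) hx) h1
    exact Subtype.ext (inv_mul_eq_one.1 h2).symm
  obtain ⟨⟨x, hx⟩, e⟩ := (Finite.injective_iff_surjective.1 hinj) ⟨a, ha⟩
  refine ⟨x, hx, ?_⟩
  have e' : x * (d hK c * x⁻¹ * (d hK c)⁻¹) = a := congrArg Subtype.val e
  rw [← e']
  group

/-- After an inner automorphism the unipotent subgroup and the torus are preserved. -/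
theorem normalize (φ : MulAut (G K m)) : ∃ g : G K m,
    (∀ a ∈ U K m, ((MulAut.conj g)⁻¹ * φ) a ∈ U K m) ∧ ∀ y, ∃ z, ((MulAut.conj g)⁻¹ * φ) (d hK y) = d hK z := by
  classical
  haveI : Fact (Nat.Prime 3) := ⟨Nat.prime_three⟩
  obtain ⟨S, hS⟩ := exists_sylow (K := K) (m := m) hK
  let S' : Sylow 3 (G K m) := S.mapSurjective (f := φ.toMonoidHom) φ.surjective
  obtain ⟨g, hg⟩ := MulAction.exists_smul_eq (G K m) S S'
  set ψ := (MulAut.conj g)⁻¹ * φ with hψ
  have hU : ∀ a ∈ U K m, ψ a ∈ U K m := by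
    intro a ha
    have h1 : φ a ∈ (S' : Subgroup (G K m)) := ⟨a, hS.symm ▸ ha, rfl⟩
    rw [← hg, Sylow.coe_subgroup_smul, Subgroup.mem_pointwise_smul_iff_inv_smul_mem, hS] at h1
    exact h1
  obtain ⟨c, hc⟩ := IsCyclic.exists_generator (α := Kˣ)
  have h100 : w m (1 : K) 0 0 ≠ 1 := w_ne_one hK one_ne_zero
  have hB : ψ (d hK c) ∈ B K m := by
    refine mem_B_of_conj hK (hU _ (w_mem 1 0 0)) (fun e => h100 (ψ.injective (e.trans (map_one ψ).symm))) ?_
    rw [← map_inv, ← map_mul, ← map_mul]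
    exact hU _ (conj_mem_U (T_le_B (d_mem hK c)) (w_mem 1 0 0))
  obtain ⟨a, ha, k, hk⟩ := exists_UT hK hB
  have hkgen : ∀ x, x ∈ Subgroup.zpowers k := by
    have hord : Nat.card Kˣ ∣ orderOf k := by
      rw [← orderOf_eq_card_of_forall_mem_zpowers hc]
      refine orderOf_dvd_of_pow_eq_one ?_
      have h1 : ψ (d hK (c ^ orderOf k)) ∈ U K m := by
        have key : ∀ j : ℕ, ψ (d hK (c ^ j)) * (d hK (k ^ j))⁻¹ ∈ U K m := by
          intro j
          induction j with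
          | zero => simp
          | succ j ih =>
            rw [pow_succ, map_mul, map_mul, hk, show ψ (d hK (c ^ j)) * (a * d hK k) * (d hK (k ^ (j + 1)))⁻¹ =
              ψ (d hK (c ^ j)) * (d hK (k ^ j))⁻¹ * (d hK (k ^ j) * a * (d hK (k ^ j))⁻¹) by
                rw [pow_succ, map_mul]; group]
            exact mul_mem ih (conj_mem_U (T_le_B (d_mem hK _)) ha)
        simpa [pow_orderOf_eq_one] using key (orderOf k)
      -- a torus element with image in the unipotent subgroup is trivial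
      obtain ⟨t, u, v, e⟩ := exists_w hK h1
      have h3 : (d hK (c ^ orderOf k)) ^ 9 = 1 := by
        refine ψ.injective ?_
        rw [map_pow, map_one, e, show (9 : ℕ) = 3 * 3 from rfl, pow_mul, w_pow_three hK, w_pow_three hK]
        simp [w_zero]
      rw [← map_pow, ← map_one (d hK)] at h3
      have h4 := orderOf_dvd_of_pow_eq_one (d_injective hK h3)
      have h5 : orderOf (c ^ orderOf k) ∣ 3 ^ (2 * m + 1) - 1 := by
        rw [← hK, ← Nat.card_eq_fintype_card, ← Nat.card_units]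
        exact orderOf_dvd_natCard _
      have h6 : Nat.Coprime 9 (3 ^ (2 * m + 1) - 1) := by
        have hp : 3 ∣ 3 ^ (2 * m + 1) := dvd_pow_self 3 (by omega)
        have : 1 ≤ 3 ^ (2 * m + 1) := Nat.one_le_pow _ _ (by omega)
        rw [show (9 : ℕ) = 3 ^ 2 from rfl, Nat.coprime_pow_left_iff two_pos,
          Nat.prime_three.coprime_iff_not_dvd]
        omega
      exact orderOf_eq_one_iff.1 (Nat.eq_one_of_dvd_one (h6 ▸ Nat.dvd_gcd h4 h5))
    intro x
    have htop : Subgroup.zpowers k = ⊤ := Subgroup.eq_top_of_le_card _ (by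
      rw [Nat.card_zpowers]; exact Nat.le_of_dvd (orderOf_pos k) hord)
    rw [htop]; exact Subgroup.mem_top x
  obtain ⟨x, hx, hxk⟩ := exists_conj_torus hK hm hkgen ha
  refine ⟨g * x, fun b hb => ?_, fun y => ?_⟩
  · have h1 := conj_mem_U (U_le_B (inv_mem hx)) (hU b hb)
    rw [inv_inv] at h1
    rw [map_mul, mul_inv_rev, mul_assoc]
    show ((MulAut.conj x)⁻¹ : MulAut (G K m)) (ψ b) ∈ U K m
    simpa using h1
  · obtain ⟨j, rfl⟩ := Subgroup.mem_zpowers_iff.1 (hc y)
    refine ⟨k ^ j, ?_⟩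
    rw [map_zpow, map_zpow, map_zpow]
    congr 1
    rw [map_mul, mul_inv_rev, mul_assoc]
    show ((MulAut.conj x)⁻¹ : MulAut (G K m)) (ψ (d hK c)) = d hK k
    rw [hk, ← hxk, MulAut.inv_def, MulEquiv.symm_apply_eq, MulAut.conj_apply]

/-- The action on the top layer is a field automorphism up to a scalar. -/
theorem top_action (ψ : MulAut (G K m)) (hU : ∀ a ∈ U K m, ψ a ∈ U K m) (hT : ∀ y, ∃ z, ψ (d hK y) = d hK z) :
    ∃ (k : Kˣ) (σ : K ≃+* K), (∀ y : Kˣ, ψ (d hK y) = d hK (Units.map σ.toRingHom.toMonoidHom y)) ∧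
      ∀ t u v, ∃ u' v', ψ (w m t u v) = w m ((k : K) * σ t) u' v' := by
  classical
  choose μ hμ using hT
  have hco : ∀ t u v, ∃ T u' v', ψ (w m t u v) = w m T u' v' := fun t u v => exists_w hK (hU _ (w_mem t u v))
  choose T P Q hTPQ using hco
  let f : K → K := fun t => T t 0 0
  have h3 : ∀ t u v, T t u v = 0 ↔ t = 0 := by
    intro t u v
    have h := congrArg (· ^ 3) (hTPQ t u v)
    simp only [← map_pow, w_pow_three hK] at h
    constructor <;> intro h0
    · rw [h0, zero_pow (by omega), neg_zero, w_zero] at h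
      have h' := ψ.injective (h.trans (map_one ψ).symm)
      rw [← w_zero, w_inj hK] at h'
      simpa using h'.2.2
    · subst h0
      rw [zero_pow (by omega), neg_zero, w_zero, map_one, ← w_zero, w_inj hK] at h
      simpa using h.2.2.symm
  have htop : ∀ t u v, T t u v = f t := by
    intro t u v
    have e : w m t u v = w m t 0 0 * w m 0 u v := by rw [w_mul hK]; simp
    have h := congrArg ψ e
    rw [map_mul, hTPQ, hTPQ, hTPQ, w_mul hK, w_inj hK, (h3 0 u v).2 rfl, add_zero] at h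
    exact h.1
  have hadd : ∀ t s, f (t + s) = f t + f s := by
    intro t s
    have h := congrArg ψ (w_mul hK t 0 0 s 0 0)
    rw [map_mul, hTPQ, hTPQ, hTPQ, w_mul hK, w_inj hK] at h
    simp only [htop] at h
    exact h.1.symm
  have hscal : ∀ (y : Kˣ) t, f ((y : K) * t) = (μ y : K) * f t := by
    intro y t
    have h := congrArg ψ (d_conj_w hK y t 0 0)
    rw [map_mul, map_mul, map_inv, hμ, hTPQ, hTPQ, d_conj_w, w_inj hK] at h
    simp only [htop] at h
    exact h.1.symm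
  have h0 : f 0 = 0 := (h3 0 0 0).2 rfl
  have hk : f 1 ≠ 0 := fun e => one_ne_zero ((h3 1 0 0).1 e)
  have hμ' : ∀ y : Kˣ, f (y : K) / f 1 = (μ y : K) := fun y => by
    rw [← mul_one (y : K), hscal, mul_div_assoc, div_self hk, mul_one]
  let σ : K →+* K :=
    { toFun := fun t => f t / f 1
      map_one' := div_self hk
      map_zero' := by rw [h0, zero_div]
      map_add' := fun t s => by rw [hadd, add_div]
      map_mul' := fun t s => by
        rcases eq_or_ne t 0 with rfl | ht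
        · simp [h0]
        · show f (t * s) / f 1 = f t / f 1 * (f s / f 1)
          have h1 := hscal (Units.mk0 t ht) s
          rw [Units.val_mk0] at h1
          rw [h1, ← hμ' (Units.mk0 t ht), Units.val_mk0, mul_div_assoc] }
  refine ⟨Units.mk0 (f 1) hk, RingEquiv.ofBijective σ (Finite.injective_iff_bijective.1 σ.injective), fun y => ?_,
    fun t u v => ⟨P t u v, Q t u v, ?_⟩⟩
  · rw [hμ]
    exact congrArg (d hK) (Units.ext (hμ' y).symm)
  · rw [hTPQ, htop]
    congr 1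
    show f t = f 1 * (f t / f 1)
    field_simp

/-- An automorphism trivial on the torus and on the top layer fixes the unipotent subgroup. -/
theorem fix_U (ψ : MulAut (G K m)) (hd : ∀ y, ψ (d hK y) = d hK y)
    (htop : ∀ t u v, ∃ u' v', ψ (w m t u v) = w m t u' v') : ∀ t u v, ψ (w m t u v) = w m t u v := by
  classical
  haveI := (field_data hK).1
  choose P Q hPQ using htop
  have h2ne : (2 : K) ≠ 0 := by
    intro h
    have h' : ((2 : ℕ) : K) = 0 := by exact_mod_cast h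
    rw [CharP.cast_eq_zero_iff K 3] at h'
    omega
  have hodd : Odd (3 * 3 ^ m) := (show Odd 3 by decide).mul ((show Odd 3 by decide).pow)
  have heva : (-1 : K) ^ (3 * 3 ^ m + 1) = 1 := hodd.add_one.neg_one_pow
  have hevb : (-1 : K) ^ (3 * 3 ^ m + 2) = -1 := by
    rw [pow_add, hodd.neg_one_pow]; norm_num
  have hsc : ∀ (y : Kˣ) (t u v : K),
      P ((y : K) * t) ((y : K) ^ (3 * 3 ^ m + 1) * u) ((y : K) ^ (3 * 3 ^ m + 2) * v) =
        (y : K) ^ (3 * 3 ^ m + 1) * P t u v ∧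
      Q ((y : K) * t) ((y : K) ^ (3 * 3 ^ m + 1) * u) ((y : K) ^ (3 * 3 ^ m + 2) * v) =
        (y : K) ^ (3 * 3 ^ m + 2) * Q t u v := by
    intro y t u v
    have h := congrArg ψ (d_conj_w hK y t u v)
    rw [map_mul, map_mul, map_inv, hd, hPQ, hPQ, d_conj_w, w_inj hK] at h
    exact ⟨h.2.1.symm, h.2.2.symm⟩
  have hzero : P 0 0 0 = 0 ∧ Q 0 0 0 = 0 := by
    have h := hPQ 0 0 0
    rw [w_zero, map_one, ← w_zero, w_inj hK] at h
    exact ⟨h.2.1.symm, h.2.2.symm⟩
  -- the two central layers do not mix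
  have hA : ∀ u, Q 0 u 0 = 0 := by
    intro u
    have h := (hsc (-1) 0 u 0).2
    simp only [Units.val_neg, Units.val_one, heva, hevb, mul_zero, one_mul, neg_mul] at h
    have : (2 : K) * Q 0 u 0 = 0 := by linear_combination h
    exact (mul_eq_zero.1 this).resolve_left h2ne
  have hB : ∀ v, P 0 0 v = 0 := by
    intro v
    have h := (hsc (-1) 0 0 v).1
    simp only [Units.val_neg, Units.val_one, heva, hevb, mul_zero, one_mul, neg_mul] at h
    have e : w m (0 : K) 0 (-v) * w m 0 0 v = 1 := by rw [w_mul hK]; simp [w_zero]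
    have h2 := congrArg ψ e
    rw [map_mul, map_one, hPQ, hPQ, w_mul hK, ← w_zero, w_inj hK, h] at h2
    have h3 := h2.2.1
    simp only [zero_mul, sub_zero] at h3
    have : (2 : K) * P 0 0 v = 0 := by linear_combination h3
    exact (mul_eq_zero.1 this).resolve_left h2ne
  -- decomposition
  have hsplit : ∀ t u v, P t u v = P t 0 0 + P 0 u 0 ∧ Q t u v = Q t 0 0 + Q 0 0 v := by
    intro t u v
    have e : w m t u v = w m t 0 0 * w m 0 u 0 * w m 0 0 v := by rw [w_mul hK, w_mul hK]; simp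
    have h := congrArg ψ e
    rw [map_mul, map_mul, hPQ, hPQ, hPQ, hPQ, w_mul hK, w_mul hK, w_inj hK, hA, hB] at h
    exact ⟨by simpa using h.2.1, by simpa using h.2.2⟩
  set a1 := P 1 0 0 with ha1
  set b1 := Q 1 0 0 with hb1
  have hPt : ∀ t, P t 0 0 = t ^ (3 * 3 ^ m + 1) * a1 := by
    intro t
    rcases eq_or_ne t 0 with rfl | ht
    · rw [hzero.1, zero_pow (by omega), zero_mul]
    · have h := (hsc (Units.mk0 t ht) 1 0 0).1
      simpa using h
  have hQt : ∀ t, Q t 0 0 = t ^ (3 * 3 ^ m + 2) * b1 := by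
    intro t
    rcases eq_or_ne t 0 with rfl | ht
    · rw [hzero.2, zero_pow (by omega), zero_mul]
    · have h := (hsc (Units.mk0 t ht) 1 0 0).2
      simpa using h
  -- the product of two top elements
  have hprod : ∀ t s : K,
      P 0 (-(t * s ^ (3 * 3 ^ m))) 0 = P t 0 0 + P s 0 0 - t * s ^ (3 * 3 ^ m) - P (t + s) 0 0 ∧
      Q 0 0 (-(t ^ 2 * s ^ (3 * 3 ^ m)) + t * s ^ (3 * 3 ^ m + 1)) =
        Q t 0 0 + Q s 0 0 - t ^ 2 * s ^ (3 * 3 ^ m) - s * P t 0 0 + t * s ^ (3 * 3 ^ m + 1) - Q (t + s) 0 0 := by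
    intro t s
    have h := congrArg ψ (w_mul hK t 0 0 s 0 0)
    rw [map_mul, hPQ, hPQ, hPQ, w_mul hK, w_inj hK] at h
    obtain ⟨-, h1, h2⟩ := h
    simp only [add_zero, zero_sub, mul_zero, sub_zero] at h1 h2
    obtain ⟨e1, e2⟩ := hsplit (t + s) (-(t * s ^ (3 * 3 ^ m))) (-(t ^ 2 * s ^ (3 * 3 ^ m)) + t * s ^ (3 * 3 ^ m + 1))
    rw [e1] at h1
    rw [e2] at h2
    exact ⟨by linear_combination -h1, by linear_combination -h2⟩
  obtain ⟨c, hc⟩ := IsCyclic.exists_generator (α := Kˣ)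
  obtain ⟨h3e, -, hcard⟩ := sizes hK hm
  have hF : ∀ x y : K, (x + y) ^ (3 * 3 ^ m) = x ^ (3 * 3 ^ m) + y ^ (3 * 3 ^ m) := fun x y => by
    haveI : Fact (Nat.Prime 3) := ⟨Nat.prime_three⟩
    rw [show 3 * 3 ^ m = 3 ^ (m + 1) by ring]
    exact add_pow_char_pow x y 3 (m + 1)
  have hcne : ∀ k : ℕ, 0 < k → k ≤ 6 * 3 ^ m + 4 → (c : K) ^ k ≠ 1 := fun k => pow_ne_one_of_gen hK hm hc
  have hcc : ((c : K) ^ (3 * 3 ^ m)) ^ (3 * 3 ^ m) = (c : K) ^ 3 := by
    rw [← pow_mul, show 3 * 3 ^ m * (3 * 3 ^ m) = 3 * (3 * (3 ^ m * 3 ^ m)) by ring, ← hcard, mul_comm, pow_mul,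
      FiniteField.pow_card]
  have ha10 : a1 = 0 := by
    have e1 := (hprod 1 c).1
    have e2 := (hprod ((c : K) ^ (3 * 3 ^ m)) 1).1
    simp only [hPt, one_pow, one_mul, mul_one, pow_succ _ (3 * 3 ^ m), hF] at e1 e2
    rw [e1, hcc] at e2
    have h : a1 * ((c : K) ^ 3 - c) = 0 := by linear_combination e2
    refine (mul_eq_zero.1 h).resolve_right fun hh => hcne 2 two_pos (by omega) ?_
    exact mul_right_cancel₀ c.ne_zero (show (c : K) ^ 2 * c = 1 * c by linear_combination hh)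
  have hP : ∀ u, P 0 u 0 = u := by
    intro u
    have h := (hprod 1 ((-u) ^ 3 ^ m)).1
    have e : ((-u) ^ 3 ^ m) ^ (3 * 3 ^ m) = -u := by
      rw [← pow_mul, show 3 ^ m * (3 * 3 ^ m) = 3 * (3 ^ m * 3 ^ m) by ring, ← hcard, FiniteField.pow_card]
    simp only [hPt, ha10, mul_zero, add_zero, one_mul, sub_zero, zero_sub, e, neg_neg] at h
    exact h
  -- linearity on the centre
  have hbsurj : ∀ v : K, Q 0 0 v = v * Q 0 0 1 := by
    intro v
    rcases eq_or_ne v 0 with rfl | hv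
    · rw [hzero.2, zero_mul]
    have hq : ∀ x : K, x ^ 3 ^ (2 * m + 1) = x := (field_data hK).2
    have hinj : Function.Injective fun y : Kˣ => y ^ (3 * 3 ^ m + 2) := by
      refine fun y z e => inv_mul_eq_one.1 ?_
      set r := y⁻¹ * z
      have hr : r ^ (3 * 3 ^ m + 2) = 1 := by
        simp only at e
        rw [mul_pow, inv_pow, e, inv_mul_cancel]
      have ho : Odd (orderOf (r ^ 2)) := by
        obtain ⟨k, hk, hk2⟩ := exists_half m
        refine hk.of_dvd_nat (orderOf_dvd_of_pow_eq_one ?_)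
        rw [← pow_mul, ← hk2, ← hK, ← Nat.card_eq_fintype_card, ← Nat.card_units]
        exact pow_card_eq_one'
      have h2 : r ^ 2 = 1 := (param_fixed_free hq ho).2 (by rw [← pow_mul, mul_comm, pow_mul, hr, one_pow])
      rcases sq_eq_one_iff.1 (show ((r : K)) ^ 2 = 1 by rw [← Units.val_pow_eq_pow_val, h2, Units.val_one]) with h | h
      · exact Units.ext h
      · exfalso
        have h5 : (r : K) ^ (3 * 3 ^ m + 2) = 1 := by rw [← Units.val_pow_eq_pow_val, hr, Units.val_one]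
        rw [h, hevb] at h5
        exact h2ne (by linear_combination -h5)
    obtain ⟨y, hy⟩ := (Finite.injective_iff_surjective.1 hinj) (Units.mk0 v hv)
    have h := (hsc y 0 0 1).2
    simp only [mul_zero, mul_one] at h
    have hy' : (y : K) ^ (3 * 3 ^ m + 2) = v := by
      have := congrArg Units.val hy
      simpa using this
    rw [hy'] at h
    exact h
  have hδ : Q 0 0 1 = 1 := by
    have e1 := (hprod 1 c).2
    have e2 := (hprod c 1).2
    rw [hbsurj] at e1 e2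
    simp only [hPt, hQt, ha10, mul_zero, sub_zero, one_pow, one_mul, mul_one, pow_succ _ (3 * 3 ^ m)] at e1 e2
    rw [add_comm (c : K) 1] at e2
    have h : (Q 0 0 1 - 1) * (((c : K) - 1) * ((c : K) ^ (3 * 3 ^ m) + c)) = 0 := by linear_combination e1 - e2
    rcases mul_eq_zero.1 h with h | h
    · exact sub_eq_zero.1 h
    rcases mul_eq_zero.1 h with h | h
    · exact absurd (by rw [pow_one]; exact sub_eq_zero.1 h) (hcne 1 one_pos (by omega))
    · exfalso
      obtain ⟨j, hj⟩ : ∃ j, 3 * 3 ^ m = j + 1 := ⟨3 * 3 ^ m - 1, by omega⟩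
      rw [hj, pow_succ] at h
      have hjn : (c : K) ^ j = -1 := mul_right_cancel₀ c.ne_zero (show (c : K) ^ j * c = -1 * c by linear_combination h)
      exact hcne (2 * j) (by omega) (by omega) (by rw [mul_comm, pow_mul, hjn]; ring)
  have hb10 : b1 = 0 := by
    have e1 := (hprod 1 c).2
    rw [hbsurj, hδ, mul_one, hPt, ha10] at e1
    simp only [hQt, pow_add _ (3 * 3 ^ m) 2, pow_succ _ (3 * 3 ^ m), one_pow, hF] at e1
    have h3 := three0 (F := K)
    have h : b1 * (((c : K) ^ (3 * 3 ^ m) - c) * (1 - c)) = 0 := by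
      linear_combination e1 - b1 * ((c : K) + (c : K) ^ (3 * 3 ^ m) * c) * h3
    rcases mul_eq_zero.1 h with h | h
    · exact h
    rcases mul_eq_zero.1 h with h | h
    · exfalso
      obtain ⟨j, hj⟩ : ∃ j, 3 * 3 ^ m = j + 1 := ⟨3 * 3 ^ m - 1, by omega⟩
      rw [hj, pow_succ] at h
      exact hcne j (by omega) (by omega)
        (mul_right_cancel₀ c.ne_zero (show (c : K) ^ j * c = 1 * c by linear_combination h))
    · exact absurd (by rw [pow_one]; exact (sub_eq_zero.1 h).symm) (hcne 1 one_pos (by omega))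
  intro t u v
  obtain ⟨e1, e2⟩ := hsplit t u v
  rw [hPQ, e1, e2, hPt, hQt, ha10, hb10, hP, hbsurj, hδ]
  simp

/-- An automorphism fixing the unipotent subgroup and the torus is trivial. -/
theorem eq_one_of_fix (ψ : MulAut (G K m)) (hd : ∀ y, ψ (d hK y) = d hK y)
    (hu : ∀ t u v, ψ (w m t u v) = w m t u v) : ψ = 1 := by
  have hU : ∀ a ∈ U K m, ψ a = a := fun a ha => by
    obtain ⟨t, u, v, rfl⟩ := exists_w hK ha
    exact hu t u v
  have hB : ∀ b ∈ B K m, ψ b = b := fun b hb => by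
    obtain ⟨a, ha, x, rfl⟩ := exists_UT hK hb
    rw [map_mul, hU a ha, hd]
  have hnB : n hK ∉ B K m := fun h => nW_not_borel hK (Subgroup.mem_subgroupOf.1 h)
  have hn : ψ (n hK) = n hK := by
    obtain ⟨c, hc⟩ := IsCyclic.exists_generator (α := Kˣ)
    rcases decomp' hK (ψ (n hK)) with h | ⟨a, ha, x, b, hb, e⟩
    · exact absurd ((ψ.injective (hB _ h)) ▸ h : n hK ∈ B K m) hnB
    have hcm : ψ (n hK) * d hK c = d hK c⁻¹ * ψ (n hK) := by
      have h := congrArg ψ (n_conj_d hK c)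
      rw [map_mul, map_mul, map_inv, hd, hd, mul_inv_eq_iff_eq_mul] at h
      exact h
    rw [e] at hcm
    have hcomm : ∀ r s : Kˣ, d hK r * (n hK * d hK s) = n hK * d hK (r⁻¹ * s) := fun r s => by
      rw [← mul_assoc, map_mul, ← mul_assoc]
      congr 1
      rw [← mul_inv_eq_iff_eq_mul]
      rw [← inv_inv r, ← n_conj_d hK r⁻¹, inv_inv]
      group
    have e2 : a * (n hK * d hK (x * c)) * ((d hK c)⁻¹ * b * d hK c) =
        (d hK c⁻¹ * a * (d hK c⁻¹)⁻¹) * (n hK * d hK (c * x)) * b := by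
      calc a * (n hK * d hK (x * c)) * ((d hK c)⁻¹ * b * d hK c) = a * (n hK * d hK x) * b * d hK c := by
            rw [map_mul]; group
        _ = d hK c⁻¹ * (a * (n hK * d hK x) * b) := hcm
        _ = d hK c⁻¹ * a * (d hK c⁻¹)⁻¹ * (d hK c⁻¹ * (n hK * d hK x)) * b := by group
        _ = _ := by rw [hcomm, inv_inv]
    have hUc : (d hK c)⁻¹ * b * d hK c ∈ U K m := by
      simpa using conj_mem_U (inv_mem (T_le_B (d_mem hK c))) hb
    obtain ⟨e3, -, e4⟩ := cell_unique hK ha hUc (conj_mem_U (T_le_B (d_mem hK _)) ha) hb e2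
    have ha1 : a = 1 := by
      refine fixed_eq_one hK hm hc ha ?_
      rw [map_inv, inv_inv] at e3
      conv_lhs => rw [e3]
      group
    have hb1 : b = 1 := by
      refine fixed_eq_one hK hm hc hb ?_
      conv_lhs => rw [← e4]
      group
    rw [ha1, hb1, one_mul, mul_one] at e
    -- the torus part is trivial
    set x₀ := w m (1 : K) 0 0 with hx₀
    have hx₀U : x₀ ∈ U K m := w_mem 1 0 0
    obtain ⟨y₀, hy₀⟩ := (mem_T hK).1 (n_sq_mem hK)
    obtain ⟨a', ha', k, c', hc', e'⟩ : ∃ a' ∈ U K m, ∃ k, ∃ c' ∈ U K m,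
        n hK * a' * (n hK)⁻¹ = x₀ * (n hK * d hK k) * c' := by
      rcases decomp' hK ((n hK)⁻¹ * x₀ * n hK) with h | ⟨a', ha', r, c', hc', e'⟩
      · exfalso
        obtain ⟨a', ha', r, hr⟩ := exists_UT hK h
        have h1 : x₀ = n hK * a' * (n hK)⁻¹ * (n hK * d hK r * (n hK)⁻¹) := by
          rw [show n hK * a' * (n hK)⁻¹ * (n hK * d hK r * (n hK)⁻¹) = n hK * (a' * d hK r) * (n hK)⁻¹ by group, ← hr]
          group
        rw [n_conj_d] at h1
        have h2 : n hK * a' * (n hK)⁻¹ ∈ B K m := by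
          rw [eq_mul_inv_of_mul_eq h1.symm]
          exact mul_mem (U_le_B hx₀U) (inv_mem (T_le_B (d_mem hK _)))
        rw [conj_n_U hK ha' h2, mul_one, mul_inv_cancel, one_mul] at h1
        exact w_ne_one hK one_ne_zero (eq_one_of_U_T hK hx₀U h1)
      · refine ⟨a', ha', r⁻¹ * y₀⁻¹, (d hK (r⁻¹ * y₀⁻¹))⁻¹ * c'⁻¹ * d hK (r⁻¹ * y₀⁻¹), ?_, ?_⟩
        · simpa using conj_mem_U (inv_mem (T_le_B (d_mem hK (r⁻¹ * y₀⁻¹)))) (inv_mem hc')
        · rw [map_mul, map_inv, map_inv, hy₀, show x₀ = n hK * ((n hK)⁻¹ * x₀ * n hK) * (n hK)⁻¹ by group, e']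
          group
    have h := congrArg ψ e'
    rw [map_mul, map_mul, map_mul, map_mul, map_mul, map_inv, e, hU a' ha', hd, hu, hU c' hc'] at h
    have hL : n hK * d hK x * a' * (n hK * d hK x)⁻¹ =
        (d hK x)⁻¹ * x₀ * d hK x * (n hK * d hK (x * k * x)) * ((d hK x)⁻¹ * c' * d hK x) := by
      have hswap : n hK * d hK x = (d hK x)⁻¹ * n hK := by
        rw [← map_inv, ← mul_inv_eq_iff_eq_mul]; exact n_conj_d hK x
      calc n hK * d hK x * a' * (n hK * d hK x)⁻¹ = (d hK x)⁻¹ * (n hK * a' * (n hK)⁻¹) * d hK x := by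
            rw [hswap]; group
        _ = (d hK x)⁻¹ * x₀ * d hK x * ((d hK x⁻¹) * (n hK * d hK k)) * d hK x * ((d hK x)⁻¹ * c' * d hK x) := by
            rw [e', map_inv]; group
        _ = _ := by rw [hcomm, inv_inv, map_mul _ (x * k)]; group
    rw [hL, show x₀ * (n hK * d hK x * d hK k) * c' = x₀ * (n hK * d hK (x * k)) * c' by rw [map_mul]; group] at h
    have hx1U : (d hK x)⁻¹ * x₀ * d hK x ∈ U K m := by
      simpa using conj_mem_U (inv_mem (T_le_B (d_mem hK x))) hx₀U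
    have hx2U : (d hK x)⁻¹ * c' * d hK x ∈ U K m := by
      simpa using conj_mem_U (inv_mem (T_le_B (d_mem hK x))) hc'
    obtain ⟨e5, -, -⟩ := cell_unique hK hx1U hx2U hx₀U hc' h
    have e6 : d hK x * x₀ * (d hK x)⁻¹ = x₀ := by
      conv_lhs => rw [← e5]
      group
    rw [hx₀, d_conj_w, w_inj hK, mul_one] at e6
    rw [e, show x = 1 from Units.ext e6.1, map_one, mul_one]
  refine MulEquiv.ext fun g => ?_
  rcases decomp' hK g with h | ⟨a, ha, x, c, hc, rfl⟩
  · exact hB g h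
  · simp only [map_mul, hU a ha, hn, hd, hU c hc, MulAut.one_apply]

/-- Every automorphism is inner times a field automorphism. -/
theorem out_surjective :
    Function.Surjective fun σ : K ≃+* K => (QuotientGroup.mk (fieldAut m σ) : Cfsg.Out (G K m)) := by
  intro o
  obtain ⟨φ, rfl⟩ := QuotientGroup.mk_surjective o
  obtain ⟨g, hU, hT⟩ := normalize hK hm φ
  set ψ := (MulAut.conj g)⁻¹ * φ with hψ
  obtain ⟨k, σ, hσd, hσw⟩ := top_action hK hm ψ hU hT
  set χ := MulAut.conj (d hK k) * fieldAut m σ with hχ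
  have h1 : ∀ y, (χ⁻¹ * ψ) (d hK y) = d hK y := by
    intro y
    rw [MulAut.mul_apply, hσd, MulAut.inv_def, MulEquiv.symm_apply_eq, hχ, MulAut.mul_apply, fieldAut_d,
      MulAut.conj_apply, ← map_inv, ← map_mul, ← map_mul, mul_comm k, mul_inv_cancel_right]
  have h2 : ∀ t u v, ∃ u' v', (χ⁻¹ * ψ) (w m t u v) = w m t u' v' := by
    intro t u v
    obtain ⟨u', v', h⟩ := hσw t u v
    refine ⟨σ.symm (((k : K) ^ (3 * 3 ^ m + 1))⁻¹ * u'), σ.symm (((k : K) ^ (3 * 3 ^ m + 2))⁻¹ * v'), ?_⟩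
    rw [MulAut.mul_apply, h, MulAut.inv_def, MulEquiv.symm_apply_eq, hχ, MulAut.mul_apply, fieldAut_w,
      MulAut.conj_apply, d_conj_w, σ.apply_symm_apply, σ.apply_symm_apply, mul_inv_cancel_left₀,
      mul_inv_cancel_left₀] <;> exact pow_ne_zero _ k.ne_zero
  have h3 := eq_one_of_fix hK hm _ h1 (fix_U hK hm _ h1 h2)
  rw [inv_mul_eq_one] at h3
  refine ⟨σ, ?_⟩
  have e : φ = MulAut.conj g * χ := by rw [h3, hψ, mul_inv_cancel_left]
  have hconj : ∀ z : G K m, (QuotientGroup.mk (MulAut.conj z) : Cfsg.Out (G K m)) = 1 := fun z =>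
    (QuotientGroup.eq_one_iff _).2 ⟨z, rfl⟩
  show (QuotientGroup.mk (fieldAut m σ) : Cfsg.Out (G K m)) = QuotientGroup.mk φ
  rw [e, hχ, QuotientGroup.mk_mul, QuotientGroup.mk_mul, hconj, hconj, one_mul, one_mul]

theorem out_injective :
    Function.Injective fun σ : K ≃+* K => (QuotientGroup.mk (fieldAut m σ) : Cfsg.Out (G K m)) := by
  intro σ τ e
  obtain ⟨g, hg⟩ := MonoidHom.mem_range.1 (QuotientGroup.eq.1 e)
  have happ : ∀ x, fieldAut m σ (g * x * g⁻¹) = fieldAut m τ x := fun x => by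
    have h := congrArg (fun ψ : MulAut (G K m) => fieldAut m σ (ψ x)) hg
    simpa using h
  have h1 : g * w m 1 0 0 * g⁻¹ = w m 1 0 0 := (fieldAut m σ).injective ((happ _).trans (by
    rw [fieldAut_w, fieldAut_w, map_one, map_one, map_zero, map_zero]))
  obtain ⟨a, ha, k, rfl⟩ := exists_UT hK
    (mem_B_of_conj hK (w_mem 1 0 0) (w_ne_one hK one_ne_zero) (by rw [h1]; exact w_mem 1 0 0))
  obtain ⟨ta, ua, va, rfl⟩ := exists_w hK ha
  have key : ∀ t u v : K, ∃ u' v',
      w m ta ua va * d hK k * w m t u v * (w m ta ua va * d hK k)⁻¹ = w m ((k : K) * t) u' v' := by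
    intro t u v
    obtain ⟨t', u', v', e'⟩ := exists_w hK
      (conj_mem_U (mul_mem (U_le_B (w_mem ta ua va)) (T_le_B (d_mem hK k))) (w_mem t u v))
    refine ⟨u', v', ?_⟩
    rw [e']
    rw [mul_inv_eq_iff_eq_mul, ← mul_assoc, mul_assoc (w m ta ua va) (d hK k) (w m t u v),
      ← mul_inv_eq_iff_eq_mul, mul_assoc (w m ta ua va), d_conj_w, w_mul hK, w_mul hK, w_inj hK] at e'
    congr 1
    linear_combination -e'.1
  obtain ⟨u', v', h2⟩ := key 1 0 0
  rw [h2, w_inj hK, mul_one] at h1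
  refine RingEquiv.ext fun t => ?_
  obtain ⟨u'', v'', h3⟩ := key t 0 0
  have h := happ (w m t 0 0)
  rw [h3, fieldAut_w, fieldAut_w, w_inj hK, h1.1, one_mul] at h
  exact h.1

theorem card_out : Nat.card (Cfsg.Out (G K m)) = 2 * m + 1 := by
  rw [← Nat.card_eq_of_bijective _ ⟨out_injective hK hm, out_surjective hK hm⟩, card_ringAut hK]

end Cfsg.Agent.H70.ReeOut
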